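import Cfsg.Agent.Lib.Helper35.ONJ1.Data

set_option Elab.async false

namespace Cfsg.Agent.Lib.Helper35.ONJ1

open Cfsg.Agent.Lib.Helper35

theorem e0c0 : allBelow (fun k => fe0 (Nat.add 0 k)) 42720 = true := by decide +kernel
theorem e0c1 : allBelow (fun k => fe0 (Nat.add 42720 k)) 42720 = true := by decide +kernel
theorem e0c2 : allBelow (fun k => fe0 (Nat.add 85440 k)) 37320 = true := by decide +kernel
theorem e1c0 : allBelow (fun k => fe1 (Nat.add 0 k)) 3417 = true := by decide +kernel
theorem e1c1 : allBelow (fun k => fe1 (Nat.add 3417 k)) 3417 = true := by decide +kernel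
theorem e1c2 : allBelow (fun k => fe1 (Nat.add 6834 k)) 3417 = true := by decide +kernel
theorem e1c3 : allBelow (fun k => fe1 (Nat.add 10251 k)) 3417 = true := by decide +kernel
theorem e1c4 : allBelow (fun k => fe1 (Nat.add 13668 k)) 3417 = true := by decide +kernel
theorem e1c5 : allBelow (fun k => fe1 (Nat.add 17085 k)) 3417 = true := by decide +kernel
theorem e1c6 : allBelow (fun k => fe1 (Nat.add 20502 k)) 3417 = true := by decide +kernel
theorem e1c7 : allBelow (fun k => fe1 (Nat.add 23919 k)) 3417 = true := by decide +kernel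
theorem e1c8 : allBelow (fun k => fe1 (Nat.add 27336 k)) 3417 = true := by decide +kernel
theorem e1c9 : allBelow (fun k => fe1 (Nat.add 30753 k)) 3417 = true := by decide +kernel
theorem e1c10 : allBelow (fun k => fe1 (Nat.add 34170 k)) 3417 = true := by decide +kernel
theorem e1c11 : allBelow (fun k => fe1 (Nat.add 37587 k)) 3417 = true := by decide +kernel
theorem e1c12 : allBelow (fun k => fe1 (Nat.add 41004 k)) 3417 = true := by decide +kernel
theorem e1c13 : allBelow (fun k => fe1 (Nat.add 44421 k)) 3417 = true := by decide +kernel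
theorem e1c14 : allBelow (fun k => fe1 (Nat.add 47838 k)) 3417 = true := by decide +kernel
theorem e1c15 : allBelow (fun k => fe1 (Nat.add 51255 k)) 3417 = true := by decide +kernel
theorem e1c16 : allBelow (fun k => fe1 (Nat.add 54672 k)) 3417 = true := by decide +kernel
theorem e1c17 : allBelow (fun k => fe1 (Nat.add 58089 k)) 3417 = true := by decide +kernel
theorem e1c18 : allBelow (fun k => fe1 (Nat.add 61506 k)) 3417 = true := by decide +kernel
theorem e1c19 : allBelow (fun k => fe1 (Nat.add 64923 k)) 3417 = true := by decide +kernel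
theorem e1c20 : allBelow (fun k => fe1 (Nat.add 68340 k)) 3417 = true := by decide +kernel
theorem e1c21 : allBelow (fun k => fe1 (Nat.add 71757 k)) 3417 = true := by decide +kernel
theorem e1c22 : allBelow (fun k => fe1 (Nat.add 75174 k)) 3417 = true := by decide +kernel
theorem e1c23 : allBelow (fun k => fe1 (Nat.add 78591 k)) 3417 = true := by decide +kernel
theorem e1c24 : allBelow (fun k => fe1 (Nat.add 82008 k)) 3417 = true := by decide +kernel

end Cfsg.Agent.Lib.Helper35.ONJ1
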