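import Cfsg.Agent.Lib.Helper35.ONJ1.Data

set_option Elab.async false

namespace Cfsg.Agent.Lib.Helper35.ONJ1

open Cfsg.Agent.Lib.Helper35

theorem e1c25 : allBelow (fun k => fe1 (Nat.add 85425 k)) 3417 = true := by decide +kernel
theorem e1c26 : allBelow (fun k => fe1 (Nat.add 88842 k)) 3417 = true := by decide +kernel
theorem e1c27 : allBelow (fun k => fe1 (Nat.add 92259 k)) 3417 = true := by decide +kernel
theorem e1c28 : allBelow (fun k => fe1 (Nat.add 95676 k)) 3417 = true := by decide +kernel
theorem e1c29 : allBelow (fun k => fe1 (Nat.add 99093 k)) 3417 = true := by decide +kernel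
theorem e1c30 : allBelow (fun k => fe1 (Nat.add 102510 k)) 3417 = true := by decide +kernel
theorem e1c31 : allBelow (fun k => fe1 (Nat.add 105927 k)) 3417 = true := by decide +kernel
theorem e1c32 : allBelow (fun k => fe1 (Nat.add 109344 k)) 3417 = true := by decide +kernel
theorem e1c33 : allBelow (fun k => fe1 (Nat.add 112761 k)) 3417 = true := by decide +kernel
theorem e1c34 : allBelow (fun k => fe1 (Nat.add 116178 k)) 3417 = true := by decide +kernel
theorem e1c35 : allBelow (fun k => fe1 (Nat.add 119595 k)) 3165 = true := by decide +kernel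
theorem e2c0 : allBelow (fun k => fe2 (Nat.add 0 k)) 3417 = true := by decide +kernel
theorem e2c1 : allBelow (fun k => fe2 (Nat.add 3417 k)) 3417 = true := by decide +kernel
theorem e2c2 : allBelow (fun k => fe2 (Nat.add 6834 k)) 3417 = true := by decide +kernel
theorem e2c3 : allBelow (fun k => fe2 (Nat.add 10251 k)) 3417 = true := by decide +kernel
theorem e2c4 : allBelow (fun k => fe2 (Nat.add 13668 k)) 3417 = true := by decide +kernel
theorem e2c5 : allBelow (fun k => fe2 (Nat.add 17085 k)) 3417 = true := by decide +kernel
theorem e2c6 : allBelow (fun k => fe2 (Nat.add 20502 k)) 3417 = true := by decide +kernel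
theorem e2c7 : allBelow (fun k => fe2 (Nat.add 23919 k)) 3417 = true := by decide +kernel
theorem e2c8 : allBelow (fun k => fe2 (Nat.add 27336 k)) 3417 = true := by decide +kernel
theorem e2c9 : allBelow (fun k => fe2 (Nat.add 30753 k)) 3417 = true := by decide +kernel
theorem e2c10 : allBelow (fun k => fe2 (Nat.add 34170 k)) 3417 = true := by decide +kernel
theorem e2c11 : allBelow (fun k => fe2 (Nat.add 37587 k)) 3417 = true := by decide +kernel
theorem e2c12 : allBelow (fun k => fe2 (Nat.add 41004 k)) 3417 = true := by decide +kernel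
theorem e2c13 : allBelow (fun k => fe2 (Nat.add 44421 k)) 3417 = true := by decide +kernel
theorem e2c14 : allBelow (fun k => fe2 (Nat.add 47838 k)) 3417 = true := by decide +kernel
theorem e2c15 : allBelow (fun k => fe2 (Nat.add 51255 k)) 3417 = true := by decide +kernel
theorem e2c16 : allBelow (fun k => fe2 (Nat.add 54672 k)) 3417 = true := by decide +kernel

end Cfsg.Agent.Lib.Helper35.ONJ1
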