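import Cfsg.Agent.Lib.Helper35.ONJ1.Data

set_option Elab.async false

namespace Cfsg.Agent.Lib.Helper35.ONJ1

open Cfsg.Agent.Lib.Helper35

theorem rc205 : allBelow (fun k => fr (Nat.add 108650 k)) 530 = true := by decide +kernel
theorem rc206 : allBelow (fun k => fr (Nat.add 109180 k)) 530 = true := by decide +kernel
theorem rc207 : allBelow (fun k => fr (Nat.add 109710 k)) 530 = true := by decide +kernel
theorem rc208 : allBelow (fun k => fr (Nat.add 110240 k)) 530 = true := by decide +kernel
theorem rc209 : allBelow (fun k => fr (Nat.add 110770 k)) 530 = true := by decide +kernel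
theorem rc210 : allBelow (fun k => fr (Nat.add 111300 k)) 530 = true := by decide +kernel
theorem rc211 : allBelow (fun k => fr (Nat.add 111830 k)) 530 = true := by decide +kernel
theorem rc212 : allBelow (fun k => fr (Nat.add 112360 k)) 530 = true := by decide +kernel
theorem rc213 : allBelow (fun k => fr (Nat.add 112890 k)) 530 = true := by decide +kernel
theorem rc214 : allBelow (fun k => fr (Nat.add 113420 k)) 530 = true := by decide +kernel
theorem rc215 : allBelow (fun k => fr (Nat.add 113950 k)) 530 = true := by decide +kernel
theorem rc216 : allBelow (fun k => fr (Nat.add 114480 k)) 530 = true := by decide +kernel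
theorem rc217 : allBelow (fun k => fr (Nat.add 115010 k)) 530 = true := by decide +kernel
theorem rc218 : allBelow (fun k => fr (Nat.add 115540 k)) 530 = true := by decide +kernel
theorem rc219 : allBelow (fun k => fr (Nat.add 116070 k)) 530 = true := by decide +kernel
theorem rc220 : allBelow (fun k => fr (Nat.add 116600 k)) 530 = true := by decide +kernel
theorem rc221 : allBelow (fun k => fr (Nat.add 117130 k)) 530 = true := by decide +kernel
theorem rc222 : allBelow (fun k => fr (Nat.add 117660 k)) 530 = true := by decide +kernel
theorem rc223 : allBelow (fun k => fr (Nat.add 118190 k)) 530 = true := by decide +kernel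
theorem rc224 : allBelow (fun k => fr (Nat.add 118720 k)) 530 = true := by decide +kernel
theorem rc225 : allBelow (fun k => fr (Nat.add 119250 k)) 530 = true := by decide +kernel
theorem rc226 : allBelow (fun k => fr (Nat.add 119780 k)) 530 = true := by decide +kernel
theorem rc227 : allBelow (fun k => fr (Nat.add 120310 k)) 530 = true := by decide +kernel
theorem rc228 : allBelow (fun k => fr (Nat.add 120840 k)) 530 = true := by decide +kernel
theorem rc229 : allBelow (fun k => fr (Nat.add 121370 k)) 530 = true := by decide +kernel
theorem rc230 : allBelow (fun k => fr (Nat.add 121900 k)) 530 = true := by decide +kernel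
theorem rc231 : allBelow (fun k => fr (Nat.add 122430 k)) 330 = true := by decide +kernel

end Cfsg.Agent.Lib.Helper35.ONJ1
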