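import Cfsg.Agent.Lib.Helper35.ONJ1.Data

set_option Elab.async false

namespace Cfsg.Agent.Lib.Helper35.ONJ1

open Cfsg.Agent.Lib.Helper35

theorem e2c17 : allBelow (fun k => fe2 (Nat.add 58089 k)) 3417 = true := by decide +kernel
theorem e2c18 : allBelow (fun k => fe2 (Nat.add 61506 k)) 3417 = true := by decide +kernel
theorem e2c19 : allBelow (fun k => fe2 (Nat.add 64923 k)) 3417 = true := by decide +kernel
theorem e2c20 : allBelow (fun k => fe2 (Nat.add 68340 k)) 3417 = true := by decide +kernel
theorem e2c21 : allBelow (fun k => fe2 (Nat.add 71757 k)) 3417 = true := by decide +kernel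
theorem e2c22 : allBelow (fun k => fe2 (Nat.add 75174 k)) 3417 = true := by decide +kernel
theorem e2c23 : allBelow (fun k => fe2 (Nat.add 78591 k)) 3417 = true := by decide +kernel
theorem e2c24 : allBelow (fun k => fe2 (Nat.add 82008 k)) 3417 = true := by decide +kernel
theorem e2c25 : allBelow (fun k => fe2 (Nat.add 85425 k)) 3417 = true := by decide +kernel
theorem e2c26 : allBelow (fun k => fe2 (Nat.add 88842 k)) 3417 = true := by decide +kernel
theorem e2c27 : allBelow (fun k => fe2 (Nat.add 92259 k)) 3417 = true := by decide +kernel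
theorem e2c28 : allBelow (fun k => fe2 (Nat.add 95676 k)) 3417 = true := by decide +kernel
theorem e2c29 : allBelow (fun k => fe2 (Nat.add 99093 k)) 3417 = true := by decide +kernel
theorem e2c30 : allBelow (fun k => fe2 (Nat.add 102510 k)) 3417 = true := by decide +kernel
theorem e2c31 : allBelow (fun k => fe2 (Nat.add 105927 k)) 3417 = true := by decide +kernel
theorem e2c32 : allBelow (fun k => fe2 (Nat.add 109344 k)) 3417 = true := by decide +kernel
theorem e2c33 : allBelow (fun k => fe2 (Nat.add 112761 k)) 3417 = true := by decide +kernel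
theorem e2c34 : allBelow (fun k => fe2 (Nat.add 116178 k)) 3417 = true := by decide +kernel
theorem e2c35 : allBelow (fun k => fe2 (Nat.add 119595 k)) 3165 = true := by decide +kernel
theorem rc0 : allBelow (fun k => fr (Nat.add 0 k)) 530 = true := by decide +kernel
theorem rc1 : allBelow (fun k => fr (Nat.add 530 k)) 530 = true := by decide +kernel
theorem rc2 : allBelow (fun k => fr (Nat.add 1060 k)) 530 = true := by decide +kernel
theorem rc3 : allBelow (fun k => fr (Nat.add 1590 k)) 530 = true := by decide +kernel
theorem rc4 : allBelow (fun k => fr (Nat.add 2120 k)) 530 = true := by decide +kernel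
theorem rc5 : allBelow (fun k => fr (Nat.add 2650 k)) 530 = true := by decide +kernel
theorem rc6 : allBelow (fun k => fr (Nat.add 3180 k)) 530 = true := by decide +kernel
theorem rc7 : allBelow (fun k => fr (Nat.add 3710 k)) 530 = true := by decide +kernel
theorem rc8 : allBelow (fun k => fr (Nat.add 4240 k)) 530 = true := by decide +kernel

end Cfsg.Agent.Lib.Helper35.ONJ1
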