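import Cfsg.Agent.Lib.Helper35.ONJ1.Data

set_option Elab.async false

namespace Cfsg.Agent.Lib.Helper35.ONJ1

open Cfsg.Agent.Lib.Helper35

theorem rc9 : allBelow (fun k => fr (Nat.add 4770 k)) 530 = true := by decide +kernel
theorem rc10 : allBelow (fun k => fr (Nat.add 5300 k)) 530 = true := by decide +kernel
theorem rc11 : allBelow (fun k => fr (Nat.add 5830 k)) 530 = true := by decide +kernel
theorem rc12 : allBelow (fun k => fr (Nat.add 6360 k)) 530 = true := by decide +kernel
theorem rc13 : allBelow (fun k => fr (Nat.add 6890 k)) 530 = true := by decide +kernel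
theorem rc14 : allBelow (fun k => fr (Nat.add 7420 k)) 530 = true := by decide +kernel
theorem rc15 : allBelow (fun k => fr (Nat.add 7950 k)) 530 = true := by decide +kernel
theorem rc16 : allBelow (fun k => fr (Nat.add 8480 k)) 530 = true := by decide +kernel
theorem rc17 : allBelow (fun k => fr (Nat.add 9010 k)) 530 = true := by decide +kernel
theorem rc18 : allBelow (fun k => fr (Nat.add 9540 k)) 530 = true := by decide +kernel
theorem rc19 : allBelow (fun k => fr (Nat.add 10070 k)) 530 = true := by decide +kernel
theorem rc20 : allBelow (fun k => fr (Nat.add 10600 k)) 530 = true := by decide +kernel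
theorem rc21 : allBelow (fun k => fr (Nat.add 11130 k)) 530 = true := by decide +kernel
theorem rc22 : allBelow (fun k => fr (Nat.add 11660 k)) 530 = true := by decide +kernel
theorem rc23 : allBelow (fun k => fr (Nat.add 12190 k)) 530 = true := by decide +kernel
theorem rc24 : allBelow (fun k => fr (Nat.add 12720 k)) 530 = true := by decide +kernel
theorem rc25 : allBelow (fun k => fr (Nat.add 13250 k)) 530 = true := by decide +kernel
theorem rc26 : allBelow (fun k => fr (Nat.add 13780 k)) 530 = true := by decide +kernel
theorem rc27 : allBelow (fun k => fr (Nat.add 14310 k)) 530 = true := by decide +kernel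
theorem rc28 : allBelow (fun k => fr (Nat.add 14840 k)) 530 = true := by decide +kernel
theorem rc29 : allBelow (fun k => fr (Nat.add 15370 k)) 530 = true := by decide +kernel
theorem rc30 : allBelow (fun k => fr (Nat.add 15900 k)) 530 = true := by decide +kernel
theorem rc31 : allBelow (fun k => fr (Nat.add 16430 k)) 530 = true := by decide +kernel
theorem rc32 : allBelow (fun k => fr (Nat.add 16960 k)) 530 = true := by decide +kernel
theorem rc33 : allBelow (fun k => fr (Nat.add 17490 k)) 530 = true := by decide +kernel
theorem rc34 : allBelow (fun k => fr (Nat.add 18020 k)) 530 = true := by decide +kernel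
theorem rc35 : allBelow (fun k => fr (Nat.add 18550 k)) 530 = true := by decide +kernel
theorem rc36 : allBelow (fun k => fr (Nat.add 19080 k)) 530 = true := by decide +kernel

end Cfsg.Agent.Lib.Helper35.ONJ1
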