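import Cfsg.Agent.Lib.Helper35.ONJ1.Data

set_option Elab.async false

namespace Cfsg.Agent.Lib.Helper35.ONJ1

open Cfsg.Agent.Lib.Helper35

theorem rc37 : allBelow (fun k => fr (Nat.add 19610 k)) 530 = true := by decide +kernel
theorem rc38 : allBelow (fun k => fr (Nat.add 20140 k)) 530 = true := by decide +kernel
theorem rc39 : allBelow (fun k => fr (Nat.add 20670 k)) 530 = true := by decide +kernel
theorem rc40 : allBelow (fun k => fr (Nat.add 21200 k)) 530 = true := by decide +kernel
theorem rc41 : allBelow (fun k => fr (Nat.add 21730 k)) 530 = true := by decide +kernel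
theorem rc42 : allBelow (fun k => fr (Nat.add 22260 k)) 530 = true := by decide +kernel
theorem rc43 : allBelow (fun k => fr (Nat.add 22790 k)) 530 = true := by decide +kernel
theorem rc44 : allBelow (fun k => fr (Nat.add 23320 k)) 530 = true := by decide +kernel
theorem rc45 : allBelow (fun k => fr (Nat.add 23850 k)) 530 = true := by decide +kernel
theorem rc46 : allBelow (fun k => fr (Nat.add 24380 k)) 530 = true := by decide +kernel
theorem rc47 : allBelow (fun k => fr (Nat.add 24910 k)) 530 = true := by decide +kernel
theorem rc48 : allBelow (fun k => fr (Nat.add 25440 k)) 530 = true := by decide +kernel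
theorem rc49 : allBelow (fun k => fr (Nat.add 25970 k)) 530 = true := by decide +kernel
theorem rc50 : allBelow (fun k => fr (Nat.add 26500 k)) 530 = true := by decide +kernel
theorem rc51 : allBelow (fun k => fr (Nat.add 27030 k)) 530 = true := by decide +kernel
theorem rc52 : allBelow (fun k => fr (Nat.add 27560 k)) 530 = true := by decide +kernel
theorem rc53 : allBelow (fun k => fr (Nat.add 28090 k)) 530 = true := by decide +kernel
theorem rc54 : allBelow (fun k => fr (Nat.add 28620 k)) 530 = true := by decide +kernel
theorem rc55 : allBelow (fun k => fr (Nat.add 29150 k)) 530 = true := by decide +kernel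
theorem rc56 : allBelow (fun k => fr (Nat.add 29680 k)) 530 = true := by decide +kernel
theorem rc57 : allBelow (fun k => fr (Nat.add 30210 k)) 530 = true := by decide +kernel
theorem rc58 : allBelow (fun k => fr (Nat.add 30740 k)) 530 = true := by decide +kernel
theorem rc59 : allBelow (fun k => fr (Nat.add 31270 k)) 530 = true := by decide +kernel
theorem rc60 : allBelow (fun k => fr (Nat.add 31800 k)) 530 = true := by decide +kernel
theorem rc61 : allBelow (fun k => fr (Nat.add 32330 k)) 530 = true := by decide +kernel
theorem rc62 : allBelow (fun k => fr (Nat.add 32860 k)) 530 = true := by decide +kernel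
theorem rc63 : allBelow (fun k => fr (Nat.add 33390 k)) 530 = true := by decide +kernel
theorem rc64 : allBelow (fun k => fr (Nat.add 33920 k)) 530 = true := by decide +kernel

end Cfsg.Agent.Lib.Helper35.ONJ1
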