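import Cfsg.Agent.Lib.Helper35.ONJ1.Data

set_option Elab.async false

namespace Cfsg.Agent.Lib.Helper35.ONJ1

open Cfsg.Agent.Lib.Helper35

theorem rc65 : allBelow (fun k => fr (Nat.add 34450 k)) 530 = true := by decide +kernel
theorem rc66 : allBelow (fun k => fr (Nat.add 34980 k)) 530 = true := by decide +kernel
theorem rc67 : allBelow (fun k => fr (Nat.add 35510 k)) 530 = true := by decide +kernel
theorem rc68 : allBelow (fun k => fr (Nat.add 36040 k)) 530 = true := by decide +kernel
theorem rc69 : allBelow (fun k => fr (Nat.add 36570 k)) 530 = true := by decide +kernel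
theorem rc70 : allBelow (fun k => fr (Nat.add 37100 k)) 530 = true := by decide +kernel
theorem rc71 : allBelow (fun k => fr (Nat.add 37630 k)) 530 = true := by decide +kernel
theorem rc72 : allBelow (fun k => fr (Nat.add 38160 k)) 530 = true := by decide +kernel
theorem rc73 : allBelow (fun k => fr (Nat.add 38690 k)) 530 = true := by decide +kernel
theorem rc74 : allBelow (fun k => fr (Nat.add 39220 k)) 530 = true := by decide +kernel
theorem rc75 : allBelow (fun k => fr (Nat.add 39750 k)) 530 = true := by decide +kernel
theorem rc76 : allBelow (fun k => fr (Nat.add 40280 k)) 530 = true := by decide +kernel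
theorem rc77 : allBelow (fun k => fr (Nat.add 40810 k)) 530 = true := by decide +kernel
theorem rc78 : allBelow (fun k => fr (Nat.add 41340 k)) 530 = true := by decide +kernel
theorem rc79 : allBelow (fun k => fr (Nat.add 41870 k)) 530 = true := by decide +kernel
theorem rc80 : allBelow (fun k => fr (Nat.add 42400 k)) 530 = true := by decide +kernel
theorem rc81 : allBelow (fun k => fr (Nat.add 42930 k)) 530 = true := by decide +kernel
theorem rc82 : allBelow (fun k => fr (Nat.add 43460 k)) 530 = true := by decide +kernel
theorem rc83 : allBelow (fun k => fr (Nat.add 43990 k)) 530 = true := by decide +kernel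
theorem rc84 : allBelow (fun k => fr (Nat.add 44520 k)) 530 = true := by decide +kernel
theorem rc85 : allBelow (fun k => fr (Nat.add 45050 k)) 530 = true := by decide +kernel
theorem rc86 : allBelow (fun k => fr (Nat.add 45580 k)) 530 = true := by decide +kernel
theorem rc87 : allBelow (fun k => fr (Nat.add 46110 k)) 530 = true := by decide +kernel
theorem rc88 : allBelow (fun k => fr (Nat.add 46640 k)) 530 = true := by decide +kernel
theorem rc89 : allBelow (fun k => fr (Nat.add 47170 k)) 530 = true := by decide +kernel
theorem rc90 : allBelow (fun k => fr (Nat.add 47700 k)) 530 = true := by decide +kernel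
theorem rc91 : allBelow (fun k => fr (Nat.add 48230 k)) 530 = true := by decide +kernel
theorem rc92 : allBelow (fun k => fr (Nat.add 48760 k)) 530 = true := by decide +kernel

end Cfsg.Agent.Lib.Helper35.ONJ1
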