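import Cfsg.Agent.Lib.Helper35.ONJ1.Data

set_option Elab.async false

namespace Cfsg.Agent.Lib.Helper35.ONJ1

open Cfsg.Agent.Lib.Helper35

theorem rc93 : allBelow (fun k => fr (Nat.add 49290 k)) 530 = true := by decide +kernel
theorem rc94 : allBelow (fun k => fr (Nat.add 49820 k)) 530 = true := by decide +kernel
theorem rc95 : allBelow (fun k => fr (Nat.add 50350 k)) 530 = true := by decide +kernel
theorem rc96 : allBelow (fun k => fr (Nat.add 50880 k)) 530 = true := by decide +kernel
theorem rc97 : allBelow (fun k => fr (Nat.add 51410 k)) 530 = true := by decide +kernel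
theorem rc98 : allBelow (fun k => fr (Nat.add 51940 k)) 530 = true := by decide +kernel
theorem rc99 : allBelow (fun k => fr (Nat.add 52470 k)) 530 = true := by decide +kernel
theorem rc100 : allBelow (fun k => fr (Nat.add 53000 k)) 530 = true := by decide +kernel
theorem rc101 : allBelow (fun k => fr (Nat.add 53530 k)) 530 = true := by decide +kernel
theorem rc102 : allBelow (fun k => fr (Nat.add 54060 k)) 530 = true := by decide +kernel
theorem rc103 : allBelow (fun k => fr (Nat.add 54590 k)) 530 = true := by decide +kernel
theorem rc104 : allBelow (fun k => fr (Nat.add 55120 k)) 530 = true := by decide +kernel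
theorem rc105 : allBelow (fun k => fr (Nat.add 55650 k)) 530 = true := by decide +kernel
theorem rc106 : allBelow (fun k => fr (Nat.add 56180 k)) 530 = true := by decide +kernel
theorem rc107 : allBelow (fun k => fr (Nat.add 56710 k)) 530 = true := by decide +kernel
theorem rc108 : allBelow (fun k => fr (Nat.add 57240 k)) 530 = true := by decide +kernel
theorem rc109 : allBelow (fun k => fr (Nat.add 57770 k)) 530 = true := by decide +kernel
theorem rc110 : allBelow (fun k => fr (Nat.add 58300 k)) 530 = true := by decide +kernel
theorem rc111 : allBelow (fun k => fr (Nat.add 58830 k)) 530 = true := by decide +kernel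
theorem rc112 : allBelow (fun k => fr (Nat.add 59360 k)) 530 = true := by decide +kernel
theorem rc113 : allBelow (fun k => fr (Nat.add 59890 k)) 530 = true := by decide +kernel
theorem rc114 : allBelow (fun k => fr (Nat.add 60420 k)) 530 = true := by decide +kernel
theorem rc115 : allBelow (fun k => fr (Nat.add 60950 k)) 530 = true := by decide +kernel
theorem rc116 : allBelow (fun k => fr (Nat.add 61480 k)) 530 = true := by decide +kernel
theorem rc117 : allBelow (fun k => fr (Nat.add 62010 k)) 530 = true := by decide +kernel
theorem rc118 : allBelow (fun k => fr (Nat.add 62540 k)) 530 = true := by decide +kernel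
theorem rc119 : allBelow (fun k => fr (Nat.add 63070 k)) 530 = true := by decide +kernel
theorem rc120 : allBelow (fun k => fr (Nat.add 63600 k)) 530 = true := by decide +kernel

end Cfsg.Agent.Lib.Helper35.ONJ1
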