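import Cfsg.Agent.Lib.Helper35.ONJ1.Data

set_option Elab.async false

namespace Cfsg.Agent.Lib.Helper35.ONJ1

open Cfsg.Agent.Lib.Helper35

theorem rc121 : allBelow (fun k => fr (Nat.add 64130 k)) 530 = true := by decide +kernel
theorem rc122 : allBelow (fun k => fr (Nat.add 64660 k)) 530 = true := by decide +kernel
theorem rc123 : allBelow (fun k => fr (Nat.add 65190 k)) 530 = true := by decide +kernel
theorem rc124 : allBelow (fun k => fr (Nat.add 65720 k)) 530 = true := by decide +kernel
theorem rc125 : allBelow (fun k => fr (Nat.add 66250 k)) 530 = true := by decide +kernel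
theorem rc126 : allBelow (fun k => fr (Nat.add 66780 k)) 530 = true := by decide +kernel
theorem rc127 : allBelow (fun k => fr (Nat.add 67310 k)) 530 = true := by decide +kernel
theorem rc128 : allBelow (fun k => fr (Nat.add 67840 k)) 530 = true := by decide +kernel
theorem rc129 : allBelow (fun k => fr (Nat.add 68370 k)) 530 = true := by decide +kernel
theorem rc130 : allBelow (fun k => fr (Nat.add 68900 k)) 530 = true := by decide +kernel
theorem rc131 : allBelow (fun k => fr (Nat.add 69430 k)) 530 = true := by decide +kernel
theorem rc132 : allBelow (fun k => fr (Nat.add 69960 k)) 530 = true := by decide +kernel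
theorem rc133 : allBelow (fun k => fr (Nat.add 70490 k)) 530 = true := by decide +kernel
theorem rc134 : allBelow (fun k => fr (Nat.add 71020 k)) 530 = true := by decide +kernel
theorem rc135 : allBelow (fun k => fr (Nat.add 71550 k)) 530 = true := by decide +kernel
theorem rc136 : allBelow (fun k => fr (Nat.add 72080 k)) 530 = true := by decide +kernel
theorem rc137 : allBelow (fun k => fr (Nat.add 72610 k)) 530 = true := by decide +kernel
theorem rc138 : allBelow (fun k => fr (Nat.add 73140 k)) 530 = true := by decide +kernel
theorem rc139 : allBelow (fun k => fr (Nat.add 73670 k)) 530 = true := by decide +kernel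
theorem rc140 : allBelow (fun k => fr (Nat.add 74200 k)) 530 = true := by decide +kernel
theorem rc141 : allBelow (fun k => fr (Nat.add 74730 k)) 530 = true := by decide +kernel
theorem rc142 : allBelow (fun k => fr (Nat.add 75260 k)) 530 = true := by decide +kernel
theorem rc143 : allBelow (fun k => fr (Nat.add 75790 k)) 530 = true := by decide +kernel
theorem rc144 : allBelow (fun k => fr (Nat.add 76320 k)) 530 = true := by decide +kernel
theorem rc145 : allBelow (fun k => fr (Nat.add 76850 k)) 530 = true := by decide +kernel
theorem rc146 : allBelow (fun k => fr (Nat.add 77380 k)) 530 = true := by decide +kernel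
theorem rc147 : allBelow (fun k => fr (Nat.add 77910 k)) 530 = true := by decide +kernel
theorem rc148 : allBelow (fun k => fr (Nat.add 78440 k)) 530 = true := by decide +kernel

end Cfsg.Agent.Lib.Helper35.ONJ1
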