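import Cfsg.Agent.Lib.Helper35.ONJ1.Data

set_option Elab.async false

namespace Cfsg.Agent.Lib.Helper35.ONJ1

open Cfsg.Agent.Lib.Helper35

theorem rc149 : allBelow (fun k => fr (Nat.add 78970 k)) 530 = true := by decide +kernel
theorem rc150 : allBelow (fun k => fr (Nat.add 79500 k)) 530 = true := by decide +kernel
theorem rc151 : allBelow (fun k => fr (Nat.add 80030 k)) 530 = true := by decide +kernel
theorem rc152 : allBelow (fun k => fr (Nat.add 80560 k)) 530 = true := by decide +kernel
theorem rc153 : allBelow (fun k => fr (Nat.add 81090 k)) 530 = true := by decide +kernel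
theorem rc154 : allBelow (fun k => fr (Nat.add 81620 k)) 530 = true := by decide +kernel
theorem rc155 : allBelow (fun k => fr (Nat.add 82150 k)) 530 = true := by decide +kernel
theorem rc156 : allBelow (fun k => fr (Nat.add 82680 k)) 530 = true := by decide +kernel
theorem rc157 : allBelow (fun k => fr (Nat.add 83210 k)) 530 = true := by decide +kernel
theorem rc158 : allBelow (fun k => fr (Nat.add 83740 k)) 530 = true := by decide +kernel
theorem rc159 : allBelow (fun k => fr (Nat.add 84270 k)) 530 = true := by decide +kernel
theorem rc160 : allBelow (fun k => fr (Nat.add 84800 k)) 530 = true := by decide +kernel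
theorem rc161 : allBelow (fun k => fr (Nat.add 85330 k)) 530 = true := by decide +kernel
theorem rc162 : allBelow (fun k => fr (Nat.add 85860 k)) 530 = true := by decide +kernel
theorem rc163 : allBelow (fun k => fr (Nat.add 86390 k)) 530 = true := by decide +kernel
theorem rc164 : allBelow (fun k => fr (Nat.add 86920 k)) 530 = true := by decide +kernel
theorem rc165 : allBelow (fun k => fr (Nat.add 87450 k)) 530 = true := by decide +kernel
theorem rc166 : allBelow (fun k => fr (Nat.add 87980 k)) 530 = true := by decide +kernel
theorem rc167 : allBelow (fun k => fr (Nat.add 88510 k)) 530 = true := by decide +kernel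
theorem rc168 : allBelow (fun k => fr (Nat.add 89040 k)) 530 = true := by decide +kernel
theorem rc169 : allBelow (fun k => fr (Nat.add 89570 k)) 530 = true := by decide +kernel
theorem rc170 : allBelow (fun k => fr (Nat.add 90100 k)) 530 = true := by decide +kernel
theorem rc171 : allBelow (fun k => fr (Nat.add 90630 k)) 530 = true := by decide +kernel
theorem rc172 : allBelow (fun k => fr (Nat.add 91160 k)) 530 = true := by decide +kernel
theorem rc173 : allBelow (fun k => fr (Nat.add 91690 k)) 530 = true := by decide +kernel
theorem rc174 : allBelow (fun k => fr (Nat.add 92220 k)) 530 = true := by decide +kernel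
theorem rc175 : allBelow (fun k => fr (Nat.add 92750 k)) 530 = true := by decide +kernel
theorem rc176 : allBelow (fun k => fr (Nat.add 93280 k)) 530 = true := by decide +kernel

end Cfsg.Agent.Lib.Helper35.ONJ1
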