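import Cfsg.Agent.Lib.Helper35.ONJ1.Data

set_option Elab.async false

namespace Cfsg.Agent.Lib.Helper35.ONJ1

open Cfsg.Agent.Lib.Helper35

theorem rc177 : allBelow (fun k => fr (Nat.add 93810 k)) 530 = true := by decide +kernel
theorem rc178 : allBelow (fun k => fr (Nat.add 94340 k)) 530 = true := by decide +kernel
theorem rc179 : allBelow (fun k => fr (Nat.add 94870 k)) 530 = true := by decide +kernel
theorem rc180 : allBelow (fun k => fr (Nat.add 95400 k)) 530 = true := by decide +kernel
theorem rc181 : allBelow (fun k => fr (Nat.add 95930 k)) 530 = true := by decide +kernel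
theorem rc182 : allBelow (fun k => fr (Nat.add 96460 k)) 530 = true := by decide +kernel
theorem rc183 : allBelow (fun k => fr (Nat.add 96990 k)) 530 = true := by decide +kernel
theorem rc184 : allBelow (fun k => fr (Nat.add 97520 k)) 530 = true := by decide +kernel
theorem rc185 : allBelow (fun k => fr (Nat.add 98050 k)) 530 = true := by decide +kernel
theorem rc186 : allBelow (fun k => fr (Nat.add 98580 k)) 530 = true := by decide +kernel
theorem rc187 : allBelow (fun k => fr (Nat.add 99110 k)) 530 = true := by decide +kernel
theorem rc188 : allBelow (fun k => fr (Nat.add 99640 k)) 530 = true := by decide +kernel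
theorem rc189 : allBelow (fun k => fr (Nat.add 100170 k)) 530 = true := by decide +kernel
theorem rc190 : allBelow (fun k => fr (Nat.add 100700 k)) 530 = true := by decide +kernel
theorem rc191 : allBelow (fun k => fr (Nat.add 101230 k)) 530 = true := by decide +kernel
theorem rc192 : allBelow (fun k => fr (Nat.add 101760 k)) 530 = true := by decide +kernel
theorem rc193 : allBelow (fun k => fr (Nat.add 102290 k)) 530 = true := by decide +kernel
theorem rc194 : allBelow (fun k => fr (Nat.add 102820 k)) 530 = true := by decide +kernel
theorem rc195 : allBelow (fun k => fr (Nat.add 103350 k)) 530 = true := by decide +kernel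
theorem rc196 : allBelow (fun k => fr (Nat.add 103880 k)) 530 = true := by decide +kernel
theorem rc197 : allBelow (fun k => fr (Nat.add 104410 k)) 530 = true := by decide +kernel
theorem rc198 : allBelow (fun k => fr (Nat.add 104940 k)) 530 = true := by decide +kernel
theorem rc199 : allBelow (fun k => fr (Nat.add 105470 k)) 530 = true := by decide +kernel
theorem rc200 : allBelow (fun k => fr (Nat.add 106000 k)) 530 = true := by decide +kernel
theorem rc201 : allBelow (fun k => fr (Nat.add 106530 k)) 530 = true := by decide +kernel
theorem rc202 : allBelow (fun k => fr (Nat.add 107060 k)) 530 = true := by decide +kernel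
theorem rc203 : allBelow (fun k => fr (Nat.add 107590 k)) 530 = true := by decide +kernel
theorem rc204 : allBelow (fun k => fr (Nat.add 108120 k)) 530 = true := by decide +kernel

end Cfsg.Agent.Lib.Helper35.ONJ1
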